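import Cfsg.Agent.H190.TC.TD43

/-!
# `³D₄(q)`: the index of the centralizer of a `p`-singular element, no irreducible character of degree `q ^ 6`
(S2464; helper869, after helper190 (q = 3))
-/

set_option autoImplicit false

open Cfsg Subgroup

namespace Cfsg.Agent.H869.TD

open Cfsg.Lie Cfsg.Agent.Characters

section grp

variable {K : Type} [Field K] [Fintype K] {q : ℕ} (hq : IsPrimePow q) (hK : Fintype.card K = q ^ 3)

include hq hK

theorem card_g : Nat.card ↥(twistedD4 K q) = q ^ 12 * (q ^ 2 - 1) * (q ^ 6 - 1) * (q ^ 8 + q ^ 4 + 1) :=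
  S1067.result hq hK

theorem card_pos : 0 < Nat.card ↥(twistedD4 K q) := by
  rw [card_g hq hK]
  have h1 := hq.one_lt
  have h2 : 1 < q ^ 2 := Nat.one_lt_pow (by norm_num) h1
  have h6 : 1 < q ^ 6 := Nat.one_lt_pow (by norm_num) h1
  have h3 : 0 < q ^ 2 - 1 := by omega
  have h4 : 0 < q ^ 6 - 1 := by omega
  positivity

theorem finite_g : Finite ↥(twistedD4 K q) := Nat.finite_of_card_ne_zero (card_pos hq hK).ne'

variable {p : ℕ} [hp : Fact p.Prime] [CharP K p]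

/-- **Borel-Tits**: the order of the centralizer of a `p`-singular element. -/
theorem card_cent {g : ↥(twistedD4 K q)} (hg : p ∣ orderOf g) :
    Nat.card (centralizer ({g} : Set ↥(twistedD4 K q))) ∣ q ^ 12 * (q ^ 6 - 1) * (q - 1) ∨
      Nat.card (centralizer ({g} : Set ↥(twistedD4 K q))) ∣ q ^ 12 * (q ^ 2 - 1) * (q ^ 3 - 1) := by
  have hfin := finite_g hq hK
  have ho : 0 < orderOf g := orderOf_pos g
  obtain ⟨n, hn⟩ := hg
  have hn0 : n ≠ 0 := by
    rintro rfl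
    omega
  have hu : orderOf (g ^ n) = p := by
    rw [orderOf_pow_of_dvd hn0 (by rw [hn]; exact dvd_mul_left _ _), hn, Nat.mul_div_cancel _ (Nat.pos_of_ne_zero hn0)]
  obtain ⟨Q, -, hQ, hc⟩ := H81.DP.bt_td4 (K := K) (q := q) (r := p) hq hK
    (V := zpowers (g ^ n)) (IsPGroup.of_card (n := 1) (by rw [Nat.card_zpowers, hu, pow_one])) (by
      rw [Ne, zpowers_eq_bot]
      intro h
      rw [h, orderOf_one] at hu
      exact hp.out.one_lt.ne hu)
  have hle : centralizer ({g} : Set ↥(twistedD4 K q)) ≤ Q := by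
    refine le_trans ?_ hQ
    refine le_trans ?_ (centralizer_le_normalizer _)
    intro c hc
    rw [mem_centralizer_singleton_iff] at hc
    rw [mem_centralizer_iff]
    intro y hy
    obtain ⟨k, rfl⟩ := mem_zpowers_iff.1 hy
    have h1 : Commute c g := hc
    exact ((h1.pow_right n).zpow_right k).eq.symm
  have h2 := card_dvd_of_le hle
  rcases hc with hc | hc
  · left
    rwa [hc] at h2
  · right
    rwa [hc] at h2

/-- **The size of the class of a `p`-singular element.** -/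
theorem dvd_index {g : ↥(twistedD4 K q)} (hg : p ∣ orderOf g) :
    (q ^ 8 + q ^ 4 + 1) * (q + 1) ∣ (centralizer ({g} : Set ↥(twistedD4 K q))).index := by
  have hfin := finite_g hq hK
  have h1 := card_cent hq hK hg
  have h2 := (centralizer ({g} : Set ↥(twistedD4 K q))).card_mul_index
  rw [card_g hq hK] at h2
  have hc0 : 0 < Nat.card (centralizer ({g} : Set ↥(twistedD4 K q))) := Nat.card_pos
  generalize Nat.card (centralizer ({g} : Set ↥(twistedD4 K q))) = c at *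
  generalize (centralizer ({g} : Set ↥(twistedD4 K q))).index = i at *
  obtain ⟨m, rfl⟩ : ∃ m, q = m + 1 := ⟨q - 1, by have := hq.one_lt; omega⟩
  have e1 : m + 1 - 1 = m := by omega
  have e2 : (m + 1) ^ 2 - 1 = m * (m + 1 + 1) := by apply Nat.sub_eq_of_eq_add; ring
  have e3 : (m + 1) ^ 3 - 1 = m * (m ^ 2 + 3 * m + 3) := by apply Nat.sub_eq_of_eq_add; ring
  have e6 : (m + 1) ^ 6 - 1 = m * (m ^ 2 + 3 * m + 3) * ((m + 1) ^ 3 + 1) := by apply Nat.sub_eq_of_eq_add; ring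
  rw [e2, e6] at h2
  rcases h1 with ⟨t, ht⟩ | ⟨t, ht⟩
  · rw [e1, e6] at ht
    refine ⟨t, Nat.eq_of_mul_eq_mul_left hc0 ?_⟩
    rw [h2]
    calc (m + 1) ^ 12 * (m * (m + 1 + 1)) * (m * (m ^ 2 + 3 * m + 3) * ((m + 1) ^ 3 + 1)) *
        ((m + 1) ^ 8 + (m + 1) ^ 4 + 1) =
        ((m + 1) ^ 12 * (m * (m ^ 2 + 3 * m + 3) * ((m + 1) ^ 3 + 1)) * m) *
          (((m + 1) ^ 8 + (m + 1) ^ 4 + 1) * (m + 1 + 1)) := by ring
      _ = (c * t) * (((m + 1) ^ 8 + (m + 1) ^ 4 + 1) * (m + 1 + 1)) := by rw [ht]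
      _ = _ := by ring
  · rw [e2, e3] at ht
    refine ⟨t * (m ^ 2 + m + 1), Nat.eq_of_mul_eq_mul_left hc0 ?_⟩
    rw [h2]
    calc (m + 1) ^ 12 * (m * (m + 1 + 1)) * (m * (m ^ 2 + 3 * m + 3) * ((m + 1) ^ 3 + 1)) *
        ((m + 1) ^ 8 + (m + 1) ^ 4 + 1) =
        ((m + 1) ^ 12 * (m * (m + 1 + 1)) * (m * (m ^ 2 + 3 * m + 3))) *
          (((m + 1) ^ 8 + (m + 1) ^ 4 + 1) * (m + 1 + 1) * (m ^ 2 + m + 1)) := by ring
      _ = (c * t) * (((m + 1) ^ 8 + (m + 1) ^ 4 + 1) * (m + 1 + 1) * (m ^ 2 + m + 1)) := by rw [ht]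
      _ = _ := by ring

theorem isLie : IsLieTypeChar p ↥(twistedD4 K q) :=
  Or.inr (Or.inr (Or.inr (Or.inr (Or.inr (Or.inr (Or.inr (Or.inl
    ⟨K, inferInstance, inferInstance, inferInstance, q, hq, Or.inr ⟨hK, ⟨MulEquiv.refl _⟩⟩⟩)))))))

/-- the `p`-part of the order -/
theorem factorization {f : ℕ} (hf : q = p ^ f) : (Nat.card ↥(twistedD4 K q)).factorization p = 12 * f := by
  have hpp := hp.out
  have hcop : ∀ n : ℕ, 0 < n → ¬ p ∣ q ^ n - 1 := by
    intro n hn h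
    have hf0 : f ≠ 0 := by
      rintro rfl
      rw [pow_zero] at hf
      have := hq.one_lt
      omega
    have hpq : p ∣ q ^ n := by
      rw [hf]
      exact (dvd_pow_self p hf0).trans (dvd_pow_self _ hn.ne')
    have h1 : 1 ≤ q ^ n := Nat.one_le_pow _ _ hq.pos
    have h2 : p ∣ 1 := by
      have := (Nat.dvd_sub hpq h)
      rwa [Nat.sub_sub_self h1] at this
    exact hpp.one_lt.ne' (Nat.dvd_one.1 h2)
  have h8 : ¬ p ∣ q ^ 8 + q ^ 4 + 1 := by
    intro h
    have hf0 : f ≠ 0 := by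
      rintro rfl
      rw [pow_zero] at hf
      have := hq.one_lt
      omega
    have hpq : p ∣ q := by rw [hf]; exact dvd_pow_self p hf0
    have h1 : p ∣ q ^ 8 + q ^ 4 := dvd_add (hpq.trans (dvd_pow_self _ (by norm_num))) (hpq.trans (dvd_pow_self _ (by norm_num)))
    exact hpp.one_lt.ne' (Nat.dvd_one.1 ((Nat.dvd_add_right h1).1 h))
  have hm : ¬ p ∣ (q ^ 2 - 1) * (q ^ 6 - 1) * (q ^ 8 + q ^ 4 + 1) := by
    rw [hpp.dvd_mul, hpp.dvd_mul]
    rintro ((h | h) | h)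
    · exact hcop 2 (by norm_num) h
    · exact hcop 6 (by norm_num) h
    · exact h8 h
  have hm0 : (q ^ 2 - 1) * (q ^ 6 - 1) * (q ^ 8 + q ^ 4 + 1) ≠ 0 := fun h => hm (by rw [h]; exact dvd_zero _)
  rw [card_g hq hK, show q ^ 12 * (q ^ 2 - 1) * (q ^ 6 - 1) * (q ^ 8 + q ^ 4 + 1) =
    q ^ 12 * ((q ^ 2 - 1) * (q ^ 6 - 1) * (q ^ 8 + q ^ 4 + 1)) by ring,
    Nat.factorization_mul (pow_ne_zero _ hq.pos.ne') hm0, Finsupp.add_apply, Nat.factorization_eq_zero_of_not_dvd hm,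
    hf, ← pow_mul, hpp.factorization_pow, Finsupp.single_eq_same, add_zero, mul_comm]

/-- **No irreducible character of degree `p ^ k`, `0 < k`, `k ≠ 12 f`.** -/
theorem no_pow {f : ℕ} (hf : q = p ^ f) (χ : IrrCharacter ↥(twistedD4 K q)) {k : ℕ} (hk0 : k ≠ 0)
    (hk : k ≠ 12 * f) : charDegree (χ : ↥(twistedD4 K q) → ℂ) ≠ p ^ k := by
  intro h
  have hfin := finite_g hq hK
  have hdvd : p ∣ Nat.card ↥(twistedD4 K q) := by
    by_contra hcon
    have h1 := factorization hq hK (p := p) hf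
    rw [Nat.factorization_eq_zero_of_not_dvd hcon] at h1
    have hf0 : f = 0 := by omega
    rw [hf0, pow_zero] at hf
    have := hq.one_lt
    omega
  obtain ⟨z, hz1, hz⟩ := H190.TC.exists_central (G := ↥(twistedD4 K q)) hp.out hdvd
  have h1 := H190.TC.ne_pow hp.out (isLie hq hK) hz1 hz χ h hk0
  rw [factorization hq hK hf] at h1
  exact hk h1

end grp

/-- **No irreducible character of degree `q ^ 6`.** -/
theorem no_q6 {K : Type} [Field K] [Fintype K] {q : ℕ} (hq : IsPrimePow q) (hK : Fintype.card K = q ^ 3)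
    (χ : IrrCharacter ↥(twistedD4 K q)) : charDegree (χ : ↥(twistedD4 K q) → ℂ) ≠ q ^ 6 := by
  obtain ⟨p, hcp⟩ := CharP.exists K
  have hpp : p.Prime := CharP.char_is_prime K p
  haveI : Fact p.Prime := ⟨hpp⟩
  obtain ⟨f, hf⟩ : ∃ f, q = p ^ f := by
    obtain ⟨n, hn, hn'⟩ := FiniteField.card K p
    have h1 : q ∣ p ^ (n : ℕ) := by
      rw [← hn', hK]
      exact dvd_pow_self _ (by norm_num)
    obtain ⟨f, -, hf⟩ := (Nat.dvd_prime_pow hpp).1 h1
    exact ⟨f, hf⟩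
  have hf0 : f ≠ 0 := by
    rintro rfl
    rw [pow_zero] at hf
    have := hq.one_lt
    omega
  have h := no_pow hq hK (p := p) hf χ (k := f * 6) (by omega) (by omega)
  rwa [pow_mul, ← hf] at h

end Cfsg.Agent.H869.TD
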